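import Cfsg.Agent.H94.S460.M.M1.RChk0

set_option autoImplicit false
set_option linter.all false

namespace Cfsg.Agent.H94.S460.M

open Cfsg.Agent.H35 Cfsg.Spor

theorem m1_rall : ∀ p, p < 60 → m1_rf p = true := by
  apply allR_blocks m1_rf 60 10 1 _ (by decide)
  intro k hk
  interval_cases k
  · exact m1_rchk_0

theorem m1_circ_ok : circChk (fullW m1_rws m1_prels) m1_circT 0 m1_ccert = true := by decide +kernel
theorem m1_hc_ok : allR (fun c => hcChk m1_rsw m1_hc1T m1_hc2T c) 0 0 0 = true := by decide +kernel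
theorem m1_h0 : RData.aord (m1_rd.ent 0 1) = 0 := by decide +kernel

end Cfsg.Agent.H94.S460.M
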